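import Cfsg.Agent.Known.Mon.Hom
import Cfsg.Agent.Known.Mon.C5D

/-! A centralizer in `Co0`. -/

set_option autoImplicit false
set_option maxRecDepth 1000000
set_option maxHeartbeats 0

namespace CF.Known.Mon.C5

open Cfsg Subgroup CF.Leech CF.Loc CF.LX CF.Comp CF.Comp.Mat CF.Bt MulAction Spor

theorem chN : ChainGe N0 N1 (2 ^ 8) 8 5 NW (L :: t) 7200 :=
  ⟨rfl, by decide, by decide, slp_of_slpOK (by decide +kernel), by decide +kernel, by decide +kernel,
    by decide +kernel⟩

theorem cert : Cert w 5 8 5 7200 960 75 0 Ys As Ts N0 N1 NW L t :=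
  ⟨rfl, by decide, by decide +kernel, by decide +kernel, by decide +kernel, by decide +kernel,
    by decide +kernel, by decide +kernel, by decide +kernel, ⟨F, ks, by decide +kernel⟩,
    by decide +kernel, chN, by decide +kernel, by decide +kernel,
    ⟨rs, by decide +kernel, by decide +kernel⟩, by decide +kernel, by decide⟩

theorem xM : Exact D0 a2 M.m cM ⊤ := Exact.rebase M.xM card_M24 (by decide +kernel)

theorem cent : Nat.card 𝐂₁(ev M.m w) ≤ 60 :=
  card_cent_top_le xM (by norm_num) (k := 5) (by norm_num) (fw := TF) (kg := TK) (T := T)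
    (by decide +kernel)

theorem stab : Nat.card (stabIn 𝐂₁(Leech.permHom (ev M.m w)) w8) ≤ 960 :=
  card_stab_le w cent (c₂ := 16) (by decide +kernel)

theorem main : CD (Leech.permHom (ev M.m w)) 5 4 960 ∧
    clo (coEl Ys) (gensW 5) = 𝐂₁(Leech.permHom (ev M.m w)) ∧
    Nat.card 𝐂₁(Leech.permHom (ev M.m w)) = 7200 * (2 * 5) :=
  cert.main rfl (by norm_num) (by norm_num) (by decide) stab fun _ h => by rw [set_zero] at h; exact h.elim

theorem chZ : ChainGe Z0 Z1 10 4 5 ZW ZC 7200 :=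
  ⟨rfl, by decide, by decide, slp_of_slpOK (by decide +kernel), by decide +kernel, by decide +kernel,
    by decide +kernel⟩

/-- the ten points -/
def DW : Dom (Fin 5 ⊕ Fin 5) 10 :=
  ⟨fun i => ([.inr 2, .inr 3, .inl 0, .inl 1, .inr 1, .inl 2, .inl 3, .inr 0, .inl 4, .inr 4] : List (Fin 5 ⊕ Fin 5)).getD i (.inl 0), by decide⟩

theorem DW_full : DW.Full := by unfold Dom.Full; decide

theorem els_eq {i : ℕ} {g : Equiv.Perm (Fin 5 ⊕ Fin 5)}
    (h : ∀ j < 10, DW.pt ((nth Net.nil Z0 i).app j) = g (DW.pt j)) : DW.els Z0 i = g :=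
  Equiv.ext fun x => by
    obtain ⟨j, hj, rfl⟩ := DW_full x
    rw [DW_full.els_apply (wf_of_wfAll (by decide +kernel)) i hj, h j hj]

theorem els_mem (i : ℕ) : DW.els Z0 i ∈ alternatingFiveWreathTwo := by
  have k : ∀ σ : Equiv.Perm (Fin 5), Equiv.Perm.sign σ = 1 →
      Equiv.Perm.sumCongr σ 1 ∈ alternatingFiveWreathTwo := fun σ h =>
    subset_closure (Or.inl ⟨⟨σ, h⟩, 1, rfl⟩)
  match i with
  | 0 => exact els_eq (i := 0) (g := 1) (by decide +kernel) ▸ one_mem _
  | 1 => exact els_eq (i := 1) (g := 1) (by decide +kernel) ▸ one_mem _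
  | 2 => exact els_eq (i := 2) (g := Equiv.Perm.sumCongr (finRotate 5) 1) (by decide +kernel) ▸ k _ (by decide)
  | 3 =>
    exact els_eq (i := 3) (g := Equiv.Perm.sumCongr (Equiv.swap 0 2 * Equiv.swap 0 1) 1)
      (by decide +kernel) ▸ k _ (by decide)
  | 4 => exact els_eq (i := 4) (g := Equiv.sumComm _ _) (by decide +kernel) ▸ subset_closure (Or.inr rfl)
  | i + 5 => exact DW_full.els_eq_one (nets := Z0) (i := i + 5) (Nat.le_add_left 5 i) ▸ one_mem _

theorem hom : ∃ ψ : 𝐂₁(Leech.permHom (ev M.m w)) →* alternatingFiveWreathTwo,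
    Function.Surjective ψ ∧ ∀ x, ψ x = 1 ↔ (x : Co0) ∈ KK (Leech.permHom (ev M.m w)) :=
  cert.exists_perm (by norm_num) (by norm_num) main.2.1 main.2.2 (Ts' := Us) (by decide +kernel)
    (by decide +kernel) (by decide +kernel) chZ DW_full fun h =>
      eq_of_le_of_card_ge (clo_le.2 fun v _ => ev_mem els_mem v) (h ▸ card_wreath_le)

end CF.Known.Mon.C5
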